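import Mathlib
import Cfsg.Agent.Lib.Helper57.OPar.Defs

/-!
# OPAR sub-project [PDER+]: package [ISO] (`xM M` preserves the plus-type form)
-/

set_option autoImplicit false
open scoped MatrixGroups
open Matrix

namespace Cfsg.Agent.Lib.Helper19.OPar

open Cfsg.Agent.Lib.Helper57.OPar

universe u

theorem pkgIso : PkgIso.{u} := by
  intro F _ d M hM v
  have hv : v = Sum.elim (v ∘ Sum.inl) (v ∘ Sum.inr) := (Sum.elim_comp_inl_inr v).symm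
  set a : Fin d → F := v ∘ Sum.inl with ha
  set b : Fin d → F := v ∘ Sum.inr with hb
  have hT : (1 + M)ᵀ * (1 - Mᵀ + Mᵀ * Mᵀ) = 1 := by
    have h3 : Mᵀ * Mᵀ * Mᵀ = 0 := by
      have : Mᵀ * Mᵀ * Mᵀ = (M * M * M)ᵀ := by
        simp [Matrix.transpose_mul, Matrix.mul_assoc]
      rw [this, hM, Matrix.transpose_zero]
    rw [Matrix.transpose_add, Matrix.transpose_one]
    have : (1 + Mᵀ) * (1 - Mᵀ + Mᵀ * Mᵀ) = 1 + Mᵀ * Mᵀ * Mᵀ := by noncomm_ring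
    rw [this, h3, add_zero]
  have hx : xM M *ᵥ v = Sum.elim ((1 + M) *ᵥ a) ((1 - Mᵀ + Mᵀ * Mᵀ) *ᵥ b) := by
    rw [hv]
    unfold xM
    rw [Matrix.fromBlocks_mulVec]
    simp
  have hQ : ∀ w : Fin d ⊕ Fin d → F, Cfsg.quadFormPlus d F w
      = (w ∘ Sum.inl) ⬝ᵥ (w ∘ Sum.inr) := by
    intro w
    unfold Cfsg.quadFormPlus
    simp [dotProduct]
  rw [hQ, hQ, hx]
  simp only [Sum.elim_comp_inl, Sum.elim_comp_inr]
  have key : ((1 + M) *ᵥ a) ⬝ᵥ ((1 - Mᵀ + Mᵀ * Mᵀ) *ᵥ b)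
      = a ⬝ᵥ (((1 + M)ᵀ * (1 - Mᵀ + Mᵀ * Mᵀ)) *ᵥ b) := by
    rw [← Matrix.mulVec_mulVec, dotProduct_comm, Matrix.dotProduct_mulVec,
      ← Matrix.mulVec_transpose, dotProduct_comm]
  rw [key, hT, Matrix.one_mulVec]

end Cfsg.Agent.Lib.Helper19.OPar
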