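import Mathlib
import Cfsg.Agent.Lib.Helper57.OPar.Defs

/-!
# OPAR sub-project [PDER+]: package [NIL] (nilpotency of `xM M - 1`)
-/

set_option autoImplicit false
open scoped MatrixGroups
open Matrix

namespace Cfsg.Agent.Lib.Helper19.OPar

open Cfsg.Agent.Lib.Helper57.OPar

universe u

theorem xM_sub_one {F : Type u} [Field F] {d : ℕ} (M : Matrix (Fin d) (Fin d) F) :
    xM M - 1 = Matrix.fromBlocks M 0 0 (-Mᵀ + Mᵀ * Mᵀ) := by
  unfold xM
  ext (i | i) (j | j)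
  · simp [Matrix.sub_apply, Matrix.add_apply, Matrix.one_apply]
  · simp [Matrix.sub_apply, Matrix.one_apply]
  · simp [Matrix.sub_apply, Matrix.one_apply]
  · simp only [Matrix.sub_apply, Matrix.fromBlocks_apply₂₂, Matrix.add_apply, Matrix.one_apply,
      Matrix.neg_apply, Sum.inr.injEq]
    ring

theorem pkgNil : PkgNil.{u} := by
  intro F _ d M
  have hT3 : M * M * M = 0 → Mᵀ * Mᵀ * Mᵀ = 0 := by
    intro h
    have : Mᵀ * Mᵀ * Mᵀ = (M * M * M)ᵀ := by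
      simp [Matrix.transpose_mul, Matrix.mul_assoc]
    rw [this, h, Matrix.transpose_zero]
  have hT2 : M * M = 0 → Mᵀ * Mᵀ = 0 := by
    intro h
    have : Mᵀ * Mᵀ = (M * M)ᵀ := by simp [Matrix.transpose_mul]
    rw [this, h, Matrix.transpose_zero]
  constructor
  · intro h
    rw [xM_sub_one]
    simp only [Matrix.fromBlocks_multiply, Matrix.mul_zero, Matrix.zero_mul, add_zero, zero_add]
    have hC : (-Mᵀ + Mᵀ * Mᵀ) * (-Mᵀ + Mᵀ * Mᵀ) * (-Mᵀ + Mᵀ * Mᵀ)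
        = Mᵀ * Mᵀ * Mᵀ * ((Mᵀ - 1) * (Mᵀ - 1) * (Mᵀ - 1)) := by
      noncomm_ring
    rw [hC, hT3 h, h, Matrix.zero_mul, Matrix.fromBlocks_zero]
  · intro h
    rw [xM_sub_one]
    simp only [Matrix.fromBlocks_multiply, Matrix.mul_zero, Matrix.zero_mul, add_zero, zero_add]
    have hC : (-Mᵀ + Mᵀ * Mᵀ) * (-Mᵀ + Mᵀ * Mᵀ)
        = Mᵀ * Mᵀ * ((Mᵀ - 1) * (Mᵀ - 1)) := by
      noncomm_ring
    rw [hC, hT2 h, h, Matrix.zero_mul, Matrix.fromBlocks_zero]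

end Cfsg.Agent.Lib.Helper19.OPar
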