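import Mathlib
import Cfsg.Agent.Lib.Helper57.OPar.Defs
import Cfsg.Agent.Lib.Helper19.OPar.Nil

/-!
# OPAR sub-project [PDER+]: package [ORD] (`xM M` has order `p`)
-/

set_option autoImplicit false
open scoped MatrixGroups
open Matrix

namespace Cfsg.Agent.Lib.Helper19.OPar

open Cfsg.Agent.Lib.Helper57.OPar

universe u

theorem pkgOrd : PkgOrd.{u} := by
  intro F _ p hp _ hp2 d M hM hM0
  have hd : Nonempty (Fin d ⊕ Fin d) := by
    rcases Nat.eq_zero_or_pos d with h0 | hpos
    · subst h0
      exfalso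
      apply hM0
      ext i
      exact i.elim0
    · exact ⟨Sum.inl ⟨0, hpos⟩⟩
  have hN3 : (xM M - 1) * (xM M - 1) * (xM M - 1) = 0 := (pkgNil F d M).1 hM
  have hp3 : 3 ≤ p := by
    have := hp.out.two_le
    omega
  have hNp : (xM M - 1) ^ p = 0 := by
    have : p = 3 + (p - 3) := by omega
    rw [this, pow_add]
    have h3 : (xM M - 1) ^ 3 = 0 := by
      rw [pow_succ, pow_two]
      exact hN3
    rw [h3, zero_mul]
  have hpow : (xM M) ^ p = 1 := by
    have h1 : xM M = (xM M - 1) + 1 := by abel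
    rw [h1, add_pow_char_of_commute _ (Commute.one_right _), hNp, one_pow, zero_add]
  have hp1 : p = (p - 1) + 1 := by omega
  have hmul1 : xM M * (xM M) ^ (p - 1) = 1 := by
    rw [← pow_succ', ← hp1, hpow]
  have hmul2 : (xM M) ^ (p - 1) * xM M = 1 := by
    rw [← pow_succ, ← hp1, hpow]
  refine ⟨⟨xM M, (xM M) ^ (p - 1), hmul1, hmul2⟩, rfl, ?_⟩
  apply orderOf_eq_prime
  · apply Units.ext
    simp only [Units.val_pow_eq_pow_val, Units.val_one]
    exact hpow
  · intro h1
    have h2 : xM M = 1 := congrArg Units.val h1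
    apply hM0
    have h3 : xM M - 1 = 0 := by rw [h2, sub_self]
    rw [xM_sub_one] at h3
    ext i j
    have h4 := congrFun (congrFun h3 (Sum.inl i)) (Sum.inl j)
    simpa using h4

end Cfsg.Agent.Lib.Helper19.OPar
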